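import Cfsg.Agent.OddChar.Fischer.TypeGood

/-!
Uniqueness of factorisations of products of at most three commuting members in types M(23), M(24).
-/

set_option autoImplicit false
open Cfsg

namespace Cfsg.Agent.OddChar.Fischer

open FGS3.TT

variable {G : Type*} [Group G] [Finite G] {D : Set G}

theorem m23_pair (hD : IsThreeTranspositionClass D) (hp : IsPrimitiveUnderConj D)
    (h : IsOfTypeM23 G D) : Prim D ∧ ∃ a ∈ D, ∃ b ∈ Nb D a, Good (Nb D a ∩ Nb D b) := by
  obtain ⟨-, d, hd, c, -, -, h22, -⟩ := h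
  obtain ⟨δ, ⟨e, he, rfl⟩, hg⟩ := m22_good h22
  have hP : Prim D := ⟨hD, hp, d, hd, e, he.1, Ne.symm he.2.1, he.2.2⟩
  exact ⟨hP, d, hd, e, he, good_pair hP hd e he hg⟩

theorem m24_pair (hD : IsThreeTranspositionClass D) (hp : IsPrimitiveUnderConj D)
    (h : IsOfTypeM24 G D) : Prim D ∧ ∃ a ∈ D, ∃ b ∈ Nb D a, Good (Nb D a ∩ Nb D b) := by
  obtain ⟨-, d, hd, c, -, -, h23, -⟩ := h
  obtain ⟨-, δ, ⟨e, he, rfl⟩, -, -, -, h22, -⟩ := h23
  have hP : Prim D := ⟨hD, hp, d, hd, e, he.1, Ne.symm he.2.1, he.2.2⟩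
  refine ⟨hP, d, hd, e, he, good_pair hP hd e he ?_⟩
  refine pCore_le_center_of_quotient (m22_core ?_ ?_ h22)
  · exact (((((Tr.of_class hD).nb d).restrict _).image (QuotientGroup.mk' _)).nb _).restrict _
      |>.image (QuotientGroup.mk' _)
  · exact (MonoidHom.map_closure (QuotientGroup.mk' _) _).symm.trans
      ((congrArg (Subgroup.map _) Subgroup.closure_closure_coe_preimage).trans
        (Subgroup.map_top_of_surjective _ (QuotientGroup.mk'_surjective _)))

/-- A shared factor can be cancelled. -/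
theorem shared_factor (h : Prim D) {x y z x' y' z' : G} (hy : y ∈ D) (hz : z ∈ D)
    (hx' : x' ∈ D) (hz' : z' ∈ D) (hyz : Commute y z) (hne : y ≠ z) (hxy' : Commute x' y')
    (hxz' : Commute x' z') (e : x * y * z = x' * y' * z') (hs : y' = x) : x' = y ∨ x' = z := by
  subst hs
  refine pair_unique h hy hz hx' hz' hyz hne hxz' (mul_left_cancel (a := y') ?_)
  rw [← mul_assoc, e, hxy'.eq, mul_assoc]

theorem middle_factor (h : Prim D) {a b c a' b' c' : G}
    (ha : a ∈ D) (hb : b ∈ D) (hc : c ∈ D) (ha' : a' ∈ D) (hc' : c' ∈ D)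
    (hab : Commute a b) (hac : Commute a c) (hbc : Commute b c)
    (nab : a ≠ b) (nac : a ≠ c) (nbc : b ≠ c)
    (hab' : Commute a' b') (hac' : Commute a' c') (e : a * b * c = a' * b' * c')
    (h1 : a' ≠ a) (h2 : a' ≠ b) (h3 : a' ≠ c) : b' ≠ a ∧ b' ≠ b ∧ b' ≠ c := by
  refine ⟨fun q => ?_, fun q => ?_, fun q => ?_⟩
  · exact (shared_factor h hb hc ha' hc' hbc nbc hab' hac' e q).elim h2 h3
  · exact (shared_factor h ha hc ha' hc' hac nac hab' hac' ((by rw [hab.eq] : b * a * c = a * b * c).trans e)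
      q).elim h1 h3
  · refine (shared_factor h ha hb ha' hc' hab nab hab' hac' (Eq.trans ?_ e) q).elim h1 h2
    rw [← hac.eq, mul_assoc, ← hbc.eq, ← mul_assoc]

/-- A product of three commuting members determines the factors. -/
theorem triple_mem (h : Prim D) (hg1 : ∀ a ∈ D, Good (Nb D a))
    (hg2 : ∀ a ∈ D, ∀ b ∈ Nb D a, Good (Nb D a ∩ Nb D b)) {a b c a' b' c' : G}
    (ha : a ∈ D) (hb : b ∈ D) (hc : c ∈ D) (ha' : a' ∈ D) (hb' : b' ∈ D) (hc' : c' ∈ D)
    (hab : Commute a b) (hac : Commute a c) (hbc : Commute b c)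
    (nab : a ≠ b) (nac : a ≠ c) (nbc : b ≠ c)
    (hab' : Commute a' b') (hac' : Commute a' c') (hbc' : Commute b' c')
    (nab' : a' ≠ b') (nac' : a' ≠ c') (nbc' : b' ≠ c')
    (e : a * b * c = a' * b' * c') : a' = a ∨ a' = b ∨ a' = c := by
  by_contra hcon
  push Not at hcon
  obtain ⟨h1, h2, h3⟩ := hcon
  obtain ⟨b1, b2, b3⟩ := middle_factor h ha hb hc ha' hc' hab hac hbc nab nac nbc hab' hac' e h1 h2 h3
  obtain ⟨c1, c2, c3⟩ := middle_factor h ha hb hc ha' hb' hab hac hbc nab nac nbc hac' hab'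
    (e.trans (by rw [mul_assoc, hbc'.eq, ← mul_assoc])) h1 h2 h3
  have key : ∀ x, x ∈ D → Commute (a' * b' * c') x → Commute a x ∧ Commute b x ∧ Commute c x :=
    fun x hx hcx => commute_three h.cls.1 ha hb hc hx hab hac hbc nab nac nbc (e ▸ hcx)
  obtain ⟨a1', a2', a3'⟩ := key a' ha' (((Commute.refl a').mul_left hab'.symm).mul_left hac'.symm)
  obtain ⟨b1', b2', b3'⟩ := key b' hb' ((hab'.mul_left (Commute.refl b')).mul_left hbc'.symm)
  obtain ⟨c1', c2', c3'⟩ := key c' hc' ((hac'.mul_left hbc').mul_left (Commute.refl c'))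
  have hc_of : ∀ x ∈ D, Commute a x → Commute b x → Commute c x := fun x hx =>
    third_of_two h (hg2 a ha b ⟨hb, nab.symm, hab⟩) ha hb hc ha' hb' hc' hab hac hbc hab' hac' hbc'
      a3' b3' c3' a1' a2' nab nac nbc h1.symm h2.symm h3.symm b3.symm c3.symm nbc' nab' nac' e hx
  have e2 : a * c * b = a' * b' * c' := by rw [mul_assoc, ← hbc.eq, ← mul_assoc, e]
  have hb_of : ∀ x ∈ D, Commute a x → Commute c x → Commute b x := fun x hx =>
    third_of_two h (hg2 a ha c ⟨hc, nac.symm, hac⟩) ha hc hb ha' hb' hc' hac hab hbc.symm hab' hac'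
      hbc' a2' b2' c2' a1' a3' nac nab nbc.symm h1.symm h3.symm h2.symm b2.symm c2.symm nbc' nab'
      nac' e2 hx
  have hcent := sameComm_central (nb_tts h a) (nb_conj_mem h a) (hg1 a ha)
    (a := b) (b := c) ⟨⟨hb, nab.symm, hab⟩, ⟨hc, nac.symm, hac⟩,
      fun x hx => ⟨hc_of x hx.1 hx.2.2, hb_of x hx.1 hx.2.2⟩⟩ nbc
  refine nab (eq_of_commute_imp h ha hb fun x hx hax => ?_).symm
  by_cases hxa : x = a
  · exact hxa ▸ hab.symm
  · exact hcent x ⟨hx, hxa, hax⟩

end Cfsg.Agent.OddChar.Fischer
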