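import Cfsg.Agent.FGS3.TTPrim

/-!
Products of at most three commuting 3-transpositions: the members commuting with the product commute
with every factor, and consequences in a primitive class.
-/

set_option autoImplicit false
open Cfsg

namespace Cfsg.Agent.OddChar.Fischer

open Cfsg.Agent.Screen (tt_mul_self tt_braid mul_mul_self_cancel)

variable {G : Type*} [Group G] {D : Set G}

theorem eq_conj_of_commute {u x : G} (h : Commute u x) (uu : u * u = 1) : u * x * u = x := by
  rw [h.eq, mul_assoc, uu, mul_one]

theorem commute_of_conj_eq {u x : G} (h : u * x * u = x) (uu : u * u = 1) : Commute u x := by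
  have := congrArg (fun z => z * u) h
  show u * x = x * u
  simpa [mul_assoc, uu] using this

theorem not_braid_commute (hD : IsThreeTranspositionSet D) {u x : G} (hu : u ∈ D) (hx : x ∈ D)
    (hne : ¬ Commute u x) : u * x * u ≠ x := fun h => hne (commute_of_conj_eq h (tt_mul_self hD hu))

/-- Members commuting with a product of two commuting members commute with both. -/
theorem commute_two (hD : IsThreeTranspositionSet D) {a b x : G} (ha : a ∈ D) (hb : b ∈ D)
    (hx : x ∈ D) (hab : Commute a b) (hne : a ≠ b) (h : Commute (a * b) x) :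
    Commute a x ∧ Commute b x := by
  have aa := tt_mul_self hD ha
  have bb := tt_mul_self hD hb
  have xx := tt_mul_self hD hx
  have key : a * x * a = b * x * b := by
    calc a * x * a = a * x * (b * b) * a := by rw [bb, mul_one]
      _ = a * (x * b) * (b * a) := by simp only [mul_assoc]
      _ = a * (x * b) * (a * b) := by rw [hab.eq]
      _ = a * ((x * (b * a)) * b) := by simp only [mul_assoc]
      _ = a * ((x * (a * b)) * b) := by rw [hab.eq]
      _ = a * (((a * b) * x) * b) := by rw [h.eq]
      _ = b * x * b := by simp only [mul_assoc, mul_mul_self_cancel aa]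
  by_cases hax : Commute a x
  · exact ⟨hax, commute_of_conj_eq (by rw [← key]; exact eq_conj_of_commute hax aa) bb⟩
  · by_cases hbx : Commute b x
    · exact absurd (commute_of_conj_eq (by rw [key]; exact eq_conj_of_commute hbx bb) aa) hax
    · rw [tt_braid hD ha hx hax, tt_braid hD hb hx hbx] at key
      exact absurd (mul_left_cancel (mul_right_cancel key)) hne

/-- Moving by two commuting members not commuting with `x` gives a member commuting with `x`. -/
theorem commute_move_two (hD : IsThreeTranspositionSet D) {a b x : G} (ha : a ∈ D) (hb : b ∈ D)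
    (hx : x ∈ D) (hab : Commute a b) (hax : ¬ Commute a x) (hbx : ¬ Commute b x) :
    Commute x (a * (b * x * b) * a) := by
  have aa := tt_mul_self hD ha
  have e1 := tt_braid hD hb hx hbx
  have e2 := tt_braid hD ha hx hax
  have xx := tt_mul_self hD hx
  have hc : Commute (x * a * x) (x * b * x) := by
    show x * a * x * (x * b * x) = x * b * x * (x * a * x)
    calc x * a * x * (x * b * x) = x * (a * b) * x := by
          simp only [mul_assoc, mul_mul_self_cancel xx]
      _ = x * (b * a) * x := by rw [hab.eq]
      _ = x * b * x * (x * a * x) := by simp only [mul_assoc, mul_mul_self_cancel xx]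
  rw [← e2, ← e1] at hc
  -- conjugate by `a`
  have h2 : Commute (a * (a * x * a) * a) (a * (b * x * b) * a) := by
    show a * (a * x * a) * a * (a * (b * x * b) * a) = a * (b * x * b) * a * (a * (a * x * a) * a)
    calc a * (a * x * a) * a * (a * (b * x * b) * a) = a * ((a * x * a) * (b * x * b)) * a := by
          simp only [mul_assoc, mul_mul_self_cancel aa]
      _ = a * ((b * x * b) * (a * x * a)) * a := by rw [hc.eq]
      _ = a * (b * x * b) * a * (a * (a * x * a) * a) := by
          simp only [mul_assoc, mul_mul_self_cancel aa]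
  simpa [mul_assoc, mul_mul_self_cancel aa, aa] using h2

/-- Members commuting with a product of three commuting members commute with all of them. -/
theorem commute_three (hD : IsThreeTranspositionSet D) {a b c x : G} (ha : a ∈ D) (hb : b ∈ D)
    (hc : c ∈ D) (hx : x ∈ D) (hab : Commute a b) (hac : Commute a c) (hbc : Commute b c)
    (hab' : a ≠ b) (hac' : a ≠ c) (hbc' : b ≠ c) (h : Commute (a * b * c) x) :
    Commute a x ∧ Commute b x ∧ Commute c x := by
  have aa := tt_mul_self hD ha
  have bb := tt_mul_self hD hb
  have cc := tt_mul_self hD hc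
  by_cases hax : Commute a x
  · have : Commute (b * c) x := by
      have h' := hax.mul_left h
      simpa [mul_assoc, mul_mul_self_cancel aa] using h'
    exact ⟨hax, commute_two hD hb hc hx hbc hbc' this⟩
  by_cases hbx : Commute b x
  · have : Commute (a * c) x := by
      have h' := hbx.mul_left h
      rw [show b * (a * b * c) = a * c by
        rw [hab.eq]; simp only [mul_assoc, mul_mul_self_cancel bb]] at h'
      exact h'
    exact absurd (commute_two hD ha hc hx hac hac' this).1 hax
  by_cases hcx : Commute c x
  · have : Commute (a * b) x := by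
      have h' := h.mul_left hcx
      rw [mul_assoc (a * b) c c, cc, mul_one] at h'
      exact h'
    exact absurd (commute_two hD ha hb hx hab hab' this).1 hax
  exfalso
  apply hcx
  have hm := commute_move_two hD ha hb hx hab hax hbx
  have e : c * x * c = a * (b * x * b) * a := by
    have habc : a * b * c = c * (b * a) := by
      rw [← hab.eq, ((hac.mul_left hbc)).eq]
    have h1 : a * b * (c * x * c) * (b * a) = x := by
      calc a * b * (c * x * c) * (b * a) = (a * b * c) * x * (c * (b * a)) := by
            simp only [mul_assoc]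
        _ = x * ((a * b * c) * (c * (b * a))) := by rw [h.eq]; simp only [mul_assoc]
        _ = x := by simp only [mul_assoc, mul_mul_self_cancel cc, mul_mul_self_cancel bb, aa, mul_one]
    calc c * x * c = b * a * (a * b * (c * x * c) * (b * a)) * (a * b) := by
          simp only [mul_assoc, mul_mul_self_cancel aa, mul_mul_self_cancel bb, bb, mul_one]
      _ = b * a * x * (a * b) := by rw [h1]
      _ = a * b * x * (b * a) := by rw [hab.eq]
      _ = a * (b * x * b) * a := by simp only [mul_assoc]
  rw [← e, tt_braid hD hc hx hcx] at hm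
  have xx := tt_mul_self hD hx
  have hm' := hm.eq
  simp only [mul_assoc, xx, mul_one, mul_mul_self_cancel xx] at hm'
  exact hm'

section Prim

variable [Finite G]

open FGS3.TT

theorem mem_conj (h : Prim D) (g : G) {d : G} (hd : d ∈ D) : g * d * g⁻¹ ∈ D :=
  conj_mem h.cls g hd

/-- A member whose commuting set contains that of another is equal to it. -/
theorem eq_of_commute_imp (h : Prim D) {a b : G} (ha : a ∈ D) (hb : b ∈ D)
    (hle : ∀ x ∈ D, Commute a x → Commute b x) : b = a := by
  refine h.eq_of_sameComm ⟨ha, hb, ?_⟩
  obtain ⟨g, hg⟩ := exists_conj h.cls ha hb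
  have himg : (fun x => g * x * g⁻¹) '' {x | x ∈ D ∧ Commute a x} = {x | x ∈ D ∧ Commute b x} := by
    ext x
    constructor
    · rintro ⟨y, ⟨hy, hy'⟩, rfl⟩
      exact ⟨conj_mem h.cls g hy, hg ▸ (commute_conj_iff g a y).2 hy'⟩
    · rintro ⟨hx, hx'⟩
      refine ⟨g⁻¹ * x * g, ⟨by simpa using conj_mem h.cls g⁻¹ hx, (commute_conj_iff g _ _).1 ?_⟩,
        by simp [mul_assoc]⟩
      rw [hg]
      simpa [mul_assoc] using hx'
  have heq : {x | x ∈ D ∧ Commute a x} = {x | x ∈ D ∧ Commute b x} :=
    Set.eq_of_subset_of_ncard_le (fun x hx => ⟨hx.1, hle x hx.1 hx.2⟩)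
      (by rw [← himg, Set.ncard_image_of_injective _ fun u v e => by simpa using e]) (Set.toFinite _)
  intro e he
  exact ⟨fun hc => hle e he hc, fun hc => ((Set.ext_iff.1 heq e).2 ⟨he, hc⟩).2⟩

/-- A product of three commuting members is no member. -/
theorem three_not_mem (h : Prim D) {a b c : G} (ha : a ∈ D) (hb : b ∈ D) (hc : c ∈ D)
    (hab : Commute a b) (hac : Commute a c) (hbc : Commute b c)
    (hab' : a ≠ b) (hac' : a ≠ c) (hbc' : b ≠ c) : a * b * c ∉ D := by
  intro hd
  have aa := tt_mul_self h.cls.1 ha
  have bb := tt_mul_self h.cls.1 hb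
  have cc := tt_mul_self h.cls.1 hc
  set d := a * b * c with hdd
  have hda : Commute d a := ((Commute.refl a).mul_left hab.symm).mul_left hac.symm
  have hdb : Commute d b := (hab.mul_left (Commute.refl b)).mul_left hbc.symm
  have hdc : Commute d c := (hac.mul_left hbc).mul_left (Commute.refl c)
  have h1 : a = d * b * c := by
    have habc : Commute b c := hbc
    rw [hdd]
    calc a = a * (b * b) * (c * c) := by rw [bb, cc, mul_one, mul_one]
      _ = a * b * (b * c) * c := by simp only [mul_assoc]
      _ = a * b * (c * b) * c := by rw [habc.eq]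
      _ = a * b * c * b * c := by simp only [mul_assoc]
  have h2 : d ≠ b := by
    intro e
    have : a * c * b = b := by
      rw [mul_assoc, ← hbc.eq, ← mul_assoc]; exact e
    have h3 : a * c = 1 := mul_eq_right.1 this
    exact hac' (by rw [← inv_eq h.cls.1 hc]; exact eq_inv_of_mul_eq_one_left h3)
  have h3 : d ≠ c := by
    intro e
    exact hab' (by rw [← inv_eq h.cls.1 hb]; exact eq_inv_of_mul_eq_one_left (mul_eq_right.1 e))
  have h4 : d = a := by
    refine eq_of_commute_imp h ha hd fun x hx hax => ?_
    have := commute_three h.cls.1 hd hb hc hx hdb hdc hbc h2 h3 hbc' (h1 ▸ hax)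
    exact this.1
  have h5 : a * b * c = a * 1 := by rw [mul_one]; exact h4
  rw [mul_assoc] at h5
  exact hbc' (by rw [← inv_eq h.cls.1 hc]; exact eq_inv_of_mul_eq_one_left (mul_left_cancel h5))

/-- A product of two commuting members determines the pair. -/
theorem pair_unique (h : Prim D) {a b a' b' : G} (ha : a ∈ D) (hb : b ∈ D) (ha' : a' ∈ D) (hb' : b' ∈ D)
    (hab : Commute a b) (hne : a ≠ b) (hab' : Commute a' b')
    (e : a * b = a' * b') : a' = a ∨ a' = b := by
  by_contra hc
  push Not at hc
  have hj : Commute (a * b) a' := by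
    rw [e]; exact (Commute.refl a').mul_left hab'.symm
  obtain ⟨h1, h2⟩ := commute_two h.cls.1 ha hb ha' hab hne hj
  refine three_not_mem h ha' ha hb h1.symm h2.symm hab hc.1 hc.2 hne ?_
  have : a' * a * b = b' := by
    rw [mul_assoc, e, ← mul_assoc, tt_mul_self h.cls.1 ha', one_mul]
  rw [this]
  exact hb'

end Prim

end Cfsg.Agent.OddChar.Fischer
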