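import Cfsg.Agent.S5360
import Cfsg.Agent.FGS3.TTPrim
import Cfsg.Agent.Core.Cores
import Cfsg.Agent.Core.Fitting

/-!
The projective reflection groups in dimension six over three elements have trivial 2-core and are
not perfect.
-/

set_option autoImplicit false
open scoped MatrixGroups
open Cfsg

namespace Cfsg.Agent.OddChar.Fischer

/-- A group whose 2-core is central modulo centre. -/
theorem pCore_le_center_of_quotient {M : Type*} [Group M] {p : ℕ}
    (h : Cfsg.pCore p (M ⧸ Subgroup.center M) = ⊥) : Cfsg.pCore p M ≤ Subgroup.center M := by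
  have h1 := Core.map_pCore_le (p := p) (QuotientGroup.mk'_surjective (Subgroup.center M))
  rw [h, le_bot_iff, Subgroup.map_eq_bot_iff, QuotientGroup.ker_mk'] at h1
  exact h1

theorem pCore_quot_center_eq_bot {M : Type*} [Group M] [Finite M] {p : ℕ} [Fact p.Prime]
    (h : Cfsg.fittingSubgroup M ≤ Subgroup.center M) :
    Cfsg.pCore p (M ⧸ Subgroup.center M) = ⊥ := by
  set π := QuotientGroup.mk' (Subgroup.center M) with hπ
  set P := (Cfsg.pCore p (M ⧸ Subgroup.center M)).comap π with hP
  let f : ↥P →* ↥(Cfsg.pCore p (M ⧸ Subgroup.center M)) :=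
    (π.comp P.subtype).codRestrict _ fun x => x.2
  haveI : Group.IsNilpotent ↥(Cfsg.pCore p (M ⧸ Subgroup.center M)) :=
    (Core.isPGroup_pCore p _).isNilpotent
  haveI : Group.IsNilpotent ↥P := by
    refine Subgroup.isNilpotent_of_ker_le_center f fun x hx => ?_
    have hx' : π (x : M) = 1 := congrArg Subtype.val hx
    rw [hπ, QuotientGroup.mk'_apply, QuotientGroup.eq_one_iff] at hx'
    exact Subgroup.mem_center_iff.2 fun y => Subtype.ext (Subgroup.mem_center_iff.1 hx' y)
  have hPc : P ≤ Subgroup.center M :=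
    (Core.le_fittingSubgroup inferInstance inferInstance).trans h
  have := Subgroup.map_comap_eq_self_of_surjective (QuotientGroup.mk'_surjective (Subgroup.center M))
    (Cfsg.pCore p (M ⧸ Subgroup.center M))
  rw [← this, Subgroup.map_eq_bot_iff, QuotientGroup.ker_mk']
  exact hPc

section Refl

local notation "actV" g:max => (Subtype.val g : (Fin _ → ZMod 3) ≃ₗ[ZMod 3] (Fin _ → ZMod 3))

variable {n : ℕ} {Q : QuadraticForm (ZMod 3) (Fin n → ZMod 3)} {c : ZMod 3}

theorem refl_facts (hn : n = 6) (hQ : (QuadraticMap.polarBilin Q).Nondegenerate) (hc : c ≠ 0) :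
    Cfsg.pCore 2 (↥(Cfsg.reflectionSubgroup (⇑Q) c) ⧸
        Subgroup.center ↥(Cfsg.reflectionSubgroup (⇑Q) c)) = ⊥ ∧
      commutator (↥(Cfsg.reflectionSubgroup (⇑Q) c) ⧸
        Subgroup.center ↥(Cfsg.reflectionSubgroup (⇑Q) c)) ≠ ⊤ := by
  have hn5 : 5 ≤ n := by omega
  set R := Cfsg.reflectionSubgroup (⇑Q) c with hR
  set D : Set ↥R := {g : ↥R | (g : ↥(Cfsg.isometryGroup (ZMod 3) (⇑Q))) ∈ Cfsg.reflectionsOfNorm (⇑Q) c} with hDdef
  have hcls : Cfsg.IsThreeTranspositionClass D := S5357.result n hn5 Q hQ c hc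
  set e := Forms.isometryEquiv Q with he
  have hdim : 5 ≤ Module.finrank (ZMod 3) (Fin n → ZMod 3) := by simpa using hn5
  let j : ↥R →* Forms.orthGroup Q := e.toMonoidHom.comp R.subtype
  have hjinj : Function.Injective j := e.injective.comp Subtype.val_injective
  have hmem : ∀ g ∈ D, ∃ v, Q v = c ∧ j g = Forms.reflection Q v := by
    rintro g ⟨v, hv, h⟩
    exact ⟨v, hv, (Forms.eq_reflection_iff Q _ v).1 h⟩
  have hmk : ∀ v, Q v = c → ∃ g ∈ D, j g = Forms.reflection Q v := by
    intro v hv
    have hm : e.symm (Forms.reflection Q v) ∈ Cfsg.reflectionsOfNorm (⇑Q) c :=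
      ⟨v, hv, (Forms.eq_reflection_iff Q _ v).2 (e.apply_symm_apply _)⟩
    exact ⟨⟨_, Subgroup.subset_closure hm⟩, hm, e.apply_symm_apply _⟩
  have h2c : (2 : ZMod 3) * c ≠ 0 := mul_ne_zero FGS3.R3.two_ne hc
  -- a line is determined by its reflection
  have hline : ∀ v w, Q v = c → Q w = c → Forms.reflection Q v = Forms.reflection Q w →
      w = v ∨ w = -v := by
    intro v w hv hw h
    rcases (FGS3.R3.commute_reflection_iff hc hv hw).1 (h ▸ Commute.refl _) with hp | hp
    · exfalso
      have h1 := Forms.reflection_fix Q hp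
      rw [h, Forms.reflection_self Q (hw ▸ hc)] at h1
      have h2 : (2 : ZMod 3) • w = 0 := by rw [two_smul]; nth_rw 1 [← h1]; exact neg_add_cancel w
      rw [smul_eq_zero] at h2
      exact h2.elim FGS3.R3.two_ne fun h => hc (by rw [← hw, h, map_zero])
    · exact hp
  obtain ⟨v₀, hv₀⟩ := Forms.exists_eq_value FGS3.R3.two_ne Q hQ (by omega) c
  obtain ⟨u₀, hu₀, hvu₀, -⟩ := FGS3.R3.exists_value_perp hQ hdim (v := v₀) (w := v₀) (hv₀ ▸ hc) c
  obtain ⟨g₀, hg₀D, hg₀⟩ := hmk v₀ hv₀
  obtain ⟨k₀, hk₀D, hk₀⟩ := hmk u₀ hu₀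
  refine ⟨?_, ?_⟩
  · have hP : FGS3.TT.Prim D := by
      refine ⟨hcls, (S5360.result n hn5 Q hQ c hc).2.2.2, g₀, hg₀D, k₀, hk₀D, ?_, hjinj ?_⟩
      · rintro rfl
        rcases hline v₀ u₀ hv₀ hu₀ (hg₀.symm.trans hk₀) with rfl | rfl
        · rw [Forms.polar_self_two_mul, hv₀] at hvu₀
          exact h2c hvu₀
        · rw [QuadraticMap.polar_neg_right, neg_eq_zero, Forms.polar_self_two_mul, hv₀] at hvu₀
          exact h2c hvu₀
      · rw [map_mul, map_mul, hg₀, hk₀]
        exact ((FGS3.R3.commute_reflection_iff hc hv₀ hu₀).2 (Or.inl hvu₀)).eq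
    exact pCore_quot_center_eq_bot hP.semisimple.fitting_le_center
  · intro hperf
    let δ : ↥R →* (ZMod 3)ˣ := (Forms.orthDet Q).comp j
    have hcen : ∀ z ∈ Subgroup.center ↥R, δ z = 1 := by
      intro z hz
      set T := j z with hT
      have hfix : ∀ v, Q v = c → (actV T) v = v ∨ (actV T) v = -v := by
        intro v hv
        obtain ⟨g, hg, hgv⟩ := hmk v hv
        have hTv : Q ((actV T) v) = c := by rw [← hv]; exact T.2.2 v
        refine hline v _ hv hTv ?_
        rw [← Forms.conj_reflection, ← hgv, hT]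
        rw [← map_inv, ← map_mul, ← map_mul]
        congr 1
        rw [← Subgroup.mem_center_iff.1 hz g, mul_inv_cancel_right]
      have hsame : ∀ v w, Q v = c → Q w = c → (actV T) v = v →
          (actV T) w = w := by
        intro v w hv hw hTv
        obtain ⟨g, hg, hgv⟩ := hmk v hv
        obtain ⟨k, hk, hkw⟩ := hmk w hw
        obtain ⟨x, rfl⟩ := FGS3.TT.exists_conj hcls hg hk
        have hxv : Q ((actV (j x)) v) = c := by rw [← hv]; exact (j x).2.2 v
        rw [map_mul, map_mul, map_inv, hgv, Forms.conj_reflection] at hkw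
        have hcomm : (actV T) ((actV (j x)) v) = (actV (j x)) v := by
          rw [← Forms.orth_mul_apply, hT, ← map_mul, ← Subgroup.mem_center_iff.1 hz x, map_mul,
            Forms.orth_mul_apply, ← hT, hTv]
        rcases hline _ w hxv hw hkw with rfl | rfl
        · exact hcomm
        · rw [map_neg, hcomm]
      obtain ⟨a, ha, haeq⟩ : ∃ a : ZMod 3, a ≠ 0 ∧ ∀ v, Q v = c → (actV T) v = a • v := by
        rcases hfix v₀ hv₀ with h | h
        · exact ⟨1, one_ne_zero, fun v hv => by rw [one_smul]; exact hsame v₀ v hv₀ hv h⟩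
        · refine ⟨-1, by decide, fun v hv => ?_⟩
          rw [neg_one_smul]
          refine (hfix v hv).resolve_left fun h' => ?_
          have h3 := (hsame v v₀ hv hv₀ h').symm.trans h
          have h2 : (2 : ZMod 3) • v₀ = 0 := by
            rw [two_smul]; nth_rw 2 [h3]; exact add_neg_cancel v₀
          rw [smul_eq_zero] at h2
          exact h2.elim FGS3.R3.two_ne fun h => hc (by rw [← hv₀, h, map_zero])
      have hzero : ∀ u, (∀ v, Q v = c → QuadraticMap.polar Q u v = 0) → u = 0 := by
        intro u hu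
        obtain ⟨b, rfl⟩ := Submodule.mem_span_singleton.1
          (FGS3.R3.mem_span_of_perp_values hQ hdim hc hv₀ fun v hv _ => hu v hv)
        have := hu v₀ hv₀
        rw [QuadraticMap.polar_smul_left, Forms.polar_self_two_mul, hv₀, smul_eq_mul,
          mul_eq_zero] at this
        rw [this.resolve_right h2c, zero_smul]
      have hTeq : ((actV T) : (Fin n → ZMod 3) →ₗ[ZMod 3] (Fin n → ZMod 3)) =
          a • LinearMap.id := by
        refine LinearMap.ext fun u => sub_eq_zero.1 (hzero _ fun v hv => ?_)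
        have h1 := Forms.orth_polar Q T u v
        rw [haeq v hv, QuadraticMap.polar_smul_right, smul_eq_mul] at h1
        simp only [LinearEquiv.coe_coe, LinearMap.smul_apply, LinearMap.id_apply,
          QuadraticMap.polar_sub_left, QuadraticMap.polar_smul_left, smul_eq_mul]
        have h4 := FGS3.R3.sq_one a ha
        linear_combination a * h1 - (QuadraticMap.polar (⇑Q) ((actV T) u) v) * h4
      ext
      show (Forms.orthDet Q T : ZMod 3) = 1
      rw [Forms.orthDet_val, hTeq, LinearMap.det_smul, LinearMap.det_id, Module.finrank_fin_fun, hn,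
        mul_one]
      exact (pow_mul a 2 3).trans (by rw [pow_two, FGS3.R3.sq_one a ha, one_pow])
    have h1 : δ g₀ = 1 := by
      have h2 : (QuotientGroup.lift (Subgroup.center ↥R) δ hcen) (QuotientGroup.mk g₀) = 1 :=
        MonoidHom.mem_ker.1 (Abelianization.commutator_subset_ker _ (hperf ▸ Subgroup.mem_top _))
      exact h2
    have h3 : (δ g₀ : ZMod 3) = -1 := by
      show (Forms.orthDet Q (j g₀) : ZMod 3) = -1
      rw [hg₀]
      exact Forms.orthDet_reflection Q (hv₀ ▸ hc)
    rw [h1] at h3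
    exact absurd h3 (by decide)

end Refl

end Cfsg.Agent.OddChar.Fischer
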