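import Cfsg.Agent.OddChar.Fischer.Triples
import Cfsg.Agent.OddChar.Fischer.Reflect

/-!
Sets of involutions-or-identity with the 3-transposition property, their images modulo the centre,
and pulling back centrality of the 2-core.
-/

set_option autoImplicit false
open Cfsg

namespace Cfsg.Agent.OddChar.Fischer

open FGS3.TT

variable {G : Type*} [Group G]

/-- Squares one, the order condition, and closure under conjugation by members. -/
structure Tr (S : Set G) : Prop where
  sq : ∀ x ∈ S, x * x = 1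
  pair : ∀ x ∈ S, ∀ y ∈ S, (x * y) ^ 2 = 1 ∨ (x * y) ^ 3 = 1
  conj : ∀ x ∈ S, ∀ y ∈ S, x * y * x⁻¹ ∈ S

theorem commute_of_sq {x y : G} (hx : x * x = 1) (hy : y * y = 1) (h : (x * y) ^ 2 = 1) :
    Commute x y := by
  have h1 : (x * y)⁻¹ = x * y := inv_eq_of_mul_eq_one_right (by rwa [← pow_two])
  rw [mul_inv_rev, inv_eq_of_mul_eq_one_right hx, inv_eq_of_mul_eq_one_right hy] at h1
  exact h1.symm

theorem Tr.of_class {D : Set G} (h : IsThreeTranspositionClass D) : Tr D :=
  ⟨fun _ hx => Screen.tt_mul_self h.1 hx, h.1.2, fun x _ _ hy => conj_mem h x hy⟩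

theorem Tr.tts {S : Set G} (h : Tr S) : IsThreeTranspositionSet (S \ {1}) := by
  refine ⟨fun x hx => ?_, fun x hx y hy => h.pair x hx.1 y hy.1⟩
  exact orderOf_eq_prime (by rw [pow_two]; exact h.sq x hx.1) (fun e => hx.2 e)

theorem Tr.conj_sdiff {S : Set G} (h : Tr S) :
    ∀ x ∈ S \ {1}, ∀ y ∈ S \ {1}, x * y * x⁻¹ ∈ S \ {1} :=
  fun x hx y hy => ⟨h.conj x hx.1 y hy.1, fun e => hy.2 (by simpa using e)⟩

theorem Tr.ne_one {x y : G} (h : ¬ Commute x y) : x ≠ 1 := by
  rintro rfl; exact h (Commute.one_left y)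

theorem Tr.nb {S : Set G} (h : Tr S) (d : G) : Tr (Nb S d) := by
  refine ⟨fun x hx => h.sq x hx.1, fun x hx y hy => h.pair x hx.1 y hy.1,
    fun x hx y hy => ⟨h.conj x hx.1 y hy.1, fun e => hy.2.1 ?_, ?_⟩⟩
  · have : x * y * x⁻¹ = x * d * x⁻¹ := by rw [e, ← hx.2.2.eq, mul_inv_cancel_right]
    simpa using this
  · exact (hx.2.2.mul_right hy.2.2).mul_right hx.2.2.inv_right

theorem Tr.inter {S T : Set G} (hS : Tr S) (hT : Tr T) : Tr (S ∩ T) :=
  ⟨fun x hx => hS.sq x hx.1, fun x hx y hy => hS.pair x hx.1 y hy.1,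
    fun x hx y hy => ⟨hS.conj x hx.1 y hy.1, hT.conj x hx.2 y hy.2⟩⟩

theorem Tr.restrict {S : Set G} (h : Tr S) (H : Subgroup G) : Tr {x : ↥H | (x : G) ∈ S} :=
  ⟨fun x hx => Subtype.ext (h.sq x hx),
    fun x hx y hy => (h.pair x hx y hy).imp (fun e => Subtype.ext (by simpa using e))
      (fun e => Subtype.ext (by simpa using e)),
    fun x hx y hy => h.conj x hx y hy⟩

theorem Tr.image {X : Type*} [Group X] {S : Set G} (h : Tr S) (f : G →* X) : Tr (f '' S) := by
  refine ⟨?_, ?_, ?_⟩
  · rintro _ ⟨x, hx, rfl⟩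
    rw [← map_mul, h.sq x hx, map_one]
  · rintro _ ⟨x, hx, rfl⟩ _ ⟨y, hy, rfl⟩
    exact (h.pair x hx y hy).imp (fun e => by rw [← map_mul, ← map_pow, e, map_one])
      (fun e => by rw [← map_mul, ← map_pow, e, map_one])
  · rintro _ ⟨x, hx, rfl⟩ _ ⟨y, hy, rfl⟩
    exact ⟨_, h.conj x hx y hy, by rw [map_mul, map_mul, map_inv]⟩

theorem Tr.closure_le_normalizer {S : Set G} (h : Tr S) :
    Subgroup.closure S ≤ Subgroup.normalizer S := by
  rw [Subgroup.closure_le]
  intro x hx
  rw [SetLike.mem_coe, Subgroup.mem_set_normalizer_iff]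
  intro t
  refine ⟨fun ht => h.conj x hx t ht, fun ht => ?_⟩
  have := h.conj x hx _ ht
  rw [inv_eq_of_mul_eq_one_right (h.sq x hx)] at this
  simpa [mul_assoc, Screen.mul_mul_self_cancel (h.sq x hx), h.sq x hx] using this

/-- Goodness depends only on the generated subgroup. -/
theorem good_congr {S T : Set G} (h : Subgroup.closure S = Subgroup.closure T) (hS : Good S) :
    Good T := by
  unfold Good at hS ⊢
  rwa [← h]

theorem closure_sdiff_one (S : Set G) : Subgroup.closure (S \ {1}) = Subgroup.closure S :=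
  Subgroup.closure_sdiff_one S

variable [Finite G]

/-- Centrality of the 2-core pulls back along a map injective on the generators. -/
theorem Good.pullback {K : Set G} (hK : Tr K) {H : Subgroup G} (hKH : K ⊆ H) {X : Type*} [Group X]
    (π : ↥H →* X) (hinj : ∀ x y : ↥H, (x : G) ∈ K → (y : G) ∈ K → π x = π y → x = y)
    (hT : Good (π '' {x | (x : G) ∈ K})) : Good K := by
  have hle : Subgroup.closure K ≤ H := (Subgroup.closure_le H).2 hKH
  set ι : ↥(Subgroup.closure K) →* X := π.comp (Subgroup.inclusion hle) with hι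
  have he : ι.range = Subgroup.closure (π '' {x | (x : G) ∈ K}) := by
    rw [MonoidHom.range_eq_map, ← Subgroup.closure_closure_coe_preimage, MonoidHom.map_closure]
    congr 1
    ext v
    constructor
    · rintro ⟨u, hu, rfl⟩
      exact ⟨_, hu, rfl⟩
    · rintro ⟨u, hu, rfl⟩
      exact ⟨⟨u, Subgroup.subset_closure hu⟩, hu, rfl⟩
  let f : ↥(Subgroup.closure K) →* ↥(Subgroup.closure (π '' {x | (x : G) ∈ K})) :=
    (MulEquiv.subgroupCongr he).toMonoidHom.comp ι.rangeRestrict
  have hf : Function.Surjective f :=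
    (MulEquiv.subgroupCongr he).surjective.comp ι.rangeRestrict_surjective
  intro u hu
  have hfu : f u ∈ Subgroup.center _ :=
    hT (Core.map_pCore_le hf (Subgroup.mem_map_of_mem f hu))
  have hcom : ∀ x : ↥(Subgroup.closure K), (x : G) ∈ K → u * x * u⁻¹ = x := by
    intro x hx
    have h1 : ι (u * x * u⁻¹) = ι x := by
      have h2 : f (u * x * u⁻¹) = f x := by
        rw [map_mul, map_mul, map_inv, ← Subgroup.mem_center_iff.1 hfu (f x), mul_inv_cancel_right]
      exact congrArg Subtype.val h2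
    have h3 := hinj _ _ ((Subgroup.mem_set_normalizer_iff.1 (hK.closure_le_normalizer u.2) x).1 hx) hx h1
    exact Subtype.ext (by simpa using congrArg Subtype.val h3)
  have hle2 : (⊤ : Subgroup ↥(Subgroup.closure K)) ≤ Subgroup.centralizer {u} := by
    rw [← Subgroup.closure_closure_coe_preimage, Subgroup.closure_le]
    intro x hx
    exact Subgroup.mem_centralizer_singleton_iff.2 (mul_inv_eq_iff_eq_mul.1 (hcom x hx)).symm
  exact Subgroup.mem_center_iff.2 fun g =>
    Subgroup.mem_centralizer_singleton_iff.1 (hle2 (Subgroup.mem_top g))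

/-- Modulo the centre of its generated group, commuting is reflected on `Nb D d`, and the map is
injective there. -/
theorem quot_facts {D : Set G} (h : Prim D) {d : G} (hd : d ∈ D) :
    (∀ x y : ↥(Subgroup.closure (Nb D d)), (x : G) ∈ Nb D d → (y : G) ∈ Nb D d →
      Commute (QuotientGroup.mk' (Subgroup.center _) x) (QuotientGroup.mk' (Subgroup.center _) y) →
      Commute (x : G) (y : G)) ∧
    ∀ x y : ↥(Subgroup.closure (Nb D d)), (x : G) ∈ Nb D d → (y : G) ∈ Nb D d →
      QuotientGroup.mk' (Subgroup.center _) x = QuotientGroup.mk' (Subgroup.center _) y → x = y := by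
  set H := Subgroup.closure (Nb D d) with hH
  set π := QuotientGroup.mk' (Subgroup.center ↥H) with hπ
  have hT : Tr D := Tr.of_class h.cls
  have hcen : ∀ (u : ↥H), u ∈ Subgroup.center ↥H → ∀ z ∈ Nb D d, Commute (u : G) z := by
    intro u hu z hz
    exact (congrArg Subtype.val (Subgroup.mem_center_iff.1 hu ⟨z, Subgroup.subset_closure hz⟩)).symm
  have hrefl : ∀ x y : ↥H, (x : G) ∈ Nb D d → (y : G) ∈ Nb D d →
      Commute (π x) (π y) → Commute (x : G) (y : G) := by
    intro x y hx hy hc
    by_contra hne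
    have xx := hT.sq _ hx.1
    have hxy : (x * y) * (x * y) ∈ Subgroup.center ↥H := by
      refine (QuotientGroup.eq_one_iff _).1 ?_
      show π ((x * y) * (x * y)) = 1
      have hX : π x * π x = 1 := by
        rw [← map_mul, show x * x = 1 from Subtype.ext xx, map_one]
      have hY : π y * π y = 1 := by
        rw [← map_mul, show y * y = 1 from Subtype.ext (hT.sq _ hy.1), map_one]
      rw [map_mul, map_mul]
      calc π x * π y * (π x * π y) = π x * π y * (π y * π x) := by rw [hc.eq]
        _ = π x * (π y * π y) * π x := by simp only [mul_assoc]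
        _ = 1 := by rw [hY, mul_one, hX]
    have hc2 := (hcen _ hxy x hx).eq
    have b := Screen.tt_braid h.cls.1 hx.1 hy.1 hne
    simp only [Subgroup.coe_mul] at hc2
    have h1 : (x : G) * y * (x * y) * x = y := by
      calc (x : G) * y * (x * y) * x = x * y * ((x : G) * y * x) := by simp only [mul_assoc]
        _ = x * y * ((y : G) * x * y) := by rw [b]
        _ = x * (y * y) * x * y := by simp only [mul_assoc]
        _ = y := by rw [hT.sq _ hy.1, mul_one, xx, one_mul]
    have h2 : (x : G) * ((x : G) * y * (x * y)) = y * x * y := by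
      simp only [← mul_assoc]; rw [xx, one_mul]
    rw [h1, h2] at hc2
    have h3 : (y : G) * (x * y) = y * 1 := by rw [mul_one, ← mul_assoc]; exact hc2.symm
    have h4 := eq_inv_of_mul_eq_one_left (mul_left_cancel h3)
    rw [inv_eq h.cls.1 hy.1] at h4
    exact hne (h4 ▸ Commute.refl _)
  have hinj : ∀ x y : ↥H, (x : G) ∈ Nb D d → (y : G) ∈ Nb D d → π x = π y → x = y := by
    intro x y hx hy hxy
    by_contra hne
    have hne' : (x : G) ≠ y := fun e => hne (Subtype.ext e)
    have hc : Commute (x : G) y := hrefl x y hx hy (hxy ▸ Commute.refl _)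
    have hz : x * y ∈ Subgroup.center ↥H := by
      refine (QuotientGroup.eq_one_iff _).1 ?_
      show π (x * y) = 1
      rw [map_mul, hxy, ← map_mul, show y * y = 1 from Subtype.ext (hT.sq _ hy.1), map_one]
    refine hx.2.1 (eq_of_commute_imp h hd hx.1 fun w hw hdw => ?_)
    by_cases hwd : w = d
    · rw [hwd]; exact hx.2.2.symm
    · have h5 := hcen _ hz w ⟨hw, hwd, hdw⟩
      rw [Subgroup.coe_mul] at h5
      exact (commute_two h.cls.1 hx.1 hy.1 hw hc hne' h5).1
  exact ⟨hrefl, hinj⟩

theorem quot_nb {D : Set G} (h : Prim D) {d : G} (hd : d ∈ D)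
    (e : ↥(Subgroup.closure (Nb D d))) (he : (e : G) ∈ Nb D d) :
    Nb ((QuotientGroup.mk' (Subgroup.center ↥(Subgroup.closure (Nb D d)))) ''
        {x | (x : G) ∈ Nb D d})
      (QuotientGroup.mk' (Subgroup.center ↥(Subgroup.closure (Nb D d))) e) =
    (QuotientGroup.mk' (Subgroup.center ↥(Subgroup.closure (Nb D d)))) ''
        {x | (x : G) ∈ Nb D d ∩ Nb D (e : G)} := by
  obtain ⟨hrefl, hinj⟩ := quot_facts h hd
  ext v
  constructor
  · rintro ⟨⟨x, hx, rfl⟩, hne, hc⟩
    exact ⟨x, ⟨hx, hx.1, fun ee => hne (by rw [Subtype.ext ee]), hrefl e x he hx hc⟩, rfl⟩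
  · rintro ⟨x, ⟨hx, hx'⟩, rfl⟩
    refine ⟨⟨x, hx, rfl⟩, fun ee => hx'.2.1 (congrArg Subtype.val (hinj x e hx he ee)), ?_⟩
    exact (show Commute e x from Subtype.ext hx'.2.2.eq).map _

/-- Goodness of the neighbourhood in the quotient pulls back. -/
theorem good_pair {D : Set G} (h : Prim D) {d : G} (hd : d ∈ D) :
    ∀ (e : ↥(Subgroup.closure (Nb D d))), (e : G) ∈ Nb D d →
    (Good (Nb ((QuotientGroup.mk' (Subgroup.center ↥(Subgroup.closure (Nb D d)))) ''
        {x | (x : G) ∈ Nb D d})
      (QuotientGroup.mk' (Subgroup.center ↥(Subgroup.closure (Nb D d))) e))) →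
    Good (Nb D d ∩ Nb D (e : G)) := by
  intro e he hg
  rw [quot_nb h hd e he] at hg
  exact Good.pullback (((Tr.of_class h.cls).nb d).inter ((Tr.of_class h.cls).nb _))
    (fun x hx => Subgroup.subset_closure hx.1) _
    (fun x y hx hy => (quot_facts h hd).2 x y hx.1 hy.1) hg

end Cfsg.Agent.OddChar.Fischer
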