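import Cfsg.Agent.OddChar.Fischer.Main

/-!
In type M(23) the centralizer of a product of three commuting members induces all permutations of
them.
-/

set_option autoImplicit false
open Cfsg

namespace Cfsg.Agent.OddChar.Fischer

open FGS3.TT

variable {G : Type*} [Group G] [Finite G] {D : Set G}

/-- No member commuting with a commuting pair commutes with all the others. -/
theorem not_all_commute (h : Prim D) {a c z : G} (hg : Good (Nb D a)) (ha : a ∈ D) (hc : c ∈ Nb D a)
    (hz : z ∈ Nb D a ∩ Nb D c) (hall : ∀ y ∈ Nb D a ∩ Nb D c, Commute z y) : False := by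
  obtain ⟨g, hga, hgc⟩ := exists_conj_nb h ha hc hz.1
  have e : g * a * g⁻¹ = a := by rw [hga.eq, mul_inv_cancel_right]
  have himg : (fun x => g * x * g⁻¹) '' {y | y ∈ Nb D a ∧ Commute c y} =
      {y | y ∈ Nb D a ∧ Commute z y} := by
    ext y
    constructor
    · rintro ⟨u, ⟨hu, hcu⟩, rfl⟩
      exact ⟨e ▸ nb_conj h.cls g hu, hgc ▸ (commute_conj_iff g c u).2 hcu⟩
    · rintro ⟨hy, hzy⟩
      rw [← e, ← nb_image h.cls g a] at hy
      obtain ⟨u, hu, rfl⟩ := hy
      exact ⟨u, ⟨hu, (commute_conj_iff g c u).1 (hgc.symm ▸ hzy)⟩, rfl⟩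
  have hsub : {y | y ∈ Nb D a ∧ Commute c y} ⊆ {y | y ∈ Nb D a ∧ Commute z y} := by
    rintro y ⟨hy, hcy⟩
    refine ⟨hy, ?_⟩
    by_cases hyc : y = c
    · exact hyc ▸ hz.2.2.2.symm
    · exact hall y ⟨hy, hy.1, hyc, hcy⟩
  have heq := Set.eq_of_subset_of_ncard_le hsub
    (by rw [← himg, Set.ncard_image_of_injective _ fun u v e => by simpa using e]) (Set.toFinite _)
  have hcent := sameComm_central (nb_tts h a) (nb_conj_mem h a) hg
    (a := c) (b := z) ⟨hc, hz.1, fun y hy => ⟨fun q => ((Set.ext_iff.1 heq y).1 ⟨hy, q⟩).2,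
      fun q => ((Set.ext_iff.1 heq y).2 ⟨hy, q⟩).2⟩⟩ (Ne.symm hz.2.2.1)
  refine hc.2.1 (eq_of_commute_imp h ha hc.1 fun x hx hax => ?_)
  by_cases hxa : x = a
  · exact hxa ▸ hc.2.2.symm
  · exact hcent x ⟨hx, hxa, hax⟩

omit [Finite G] in
/-- A set with the 3-transposition property mapping nontrivially onto a simple non-abelian group is
a single conjugacy class of the generated group. -/
theorem single_class {K : Set G} (hK : IsThreeTranspositionSet K)
    (hconj : ∀ x ∈ K, ∀ y ∈ K, x * y * x⁻¹ ∈ K) {X : Type*} [Group X] [IsSimpleGroup X]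
    (hcen : Subgroup.center X = ⊥) (f : ↥(Subgroup.closure K) →* X) (hf : Function.Surjective f)
    (hne : ∀ x : ↥(Subgroup.closure K), (x : G) ∈ K → f x ≠ 1) {x y : G} (hx : x ∈ K) (hy : y ∈ K) :
    ∃ g ∈ Subgroup.closure K, g * x * g⁻¹ = y := by
  let R : G → G → Prop := fun u v => u ∈ K ∧ v ∈ K ∧ ¬ Commute u v
  let T : Set G := {u | Relation.ReflTransGen R x u}
  have hTK : ∀ u ∈ T, u ∈ K := by
    intro u hu
    induction hu with
    | refl => exact hx
    | tail _ e _ => exact e.2.1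
  by_cases hyT : y ∈ T
  · induction hyT with
    | refl => exact ⟨1, Subgroup.one_mem _, by simp⟩
    | @tail u v _ e ih =>
      obtain ⟨g, hg, hgx⟩ := ih e.1
      refine ⟨u * v * g, Subgroup.mul_mem _ (Subgroup.mul_mem _ (Subgroup.subset_closure e.1)
        (Subgroup.subset_closure e.2.1)) hg, ?_⟩
      refine Eq.trans ?_ (conj_mem_of_noncomm hK e.1 e.2.1 e.2.2)
      calc _ = u * v * (g * x * g⁻¹) * (u * v)⁻¹ := by simp [mul_assoc]
        _ = _ := by rw [hgx]
  exfalso
  have hcom : ∀ t ∈ T, Commute t y := by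
    intro t ht
    by_contra hne'
    exact hyT (Relation.ReflTransGen.tail (r := R) ht ⟨hTK t ht, hy, hne'⟩)
  have hstep : ∀ u ∈ K, ∀ t ∈ T, u * t * u⁻¹ ∈ T := by
    intro u hu t ht
    by_cases hut : Commute u t
    · rwa [hut.eq, mul_inv_cancel_right]
    refine Relation.ReflTransGen.tail (r := R) ht ⟨hTK t ht, hconj u hu t (hTK t ht), fun e => hut ?_⟩
    have tt := Screen.tt_mul_self hK (hTK t ht)
    rw [FGS3.TT.inv_eq hK hu, Screen.tt_braid hK hu (hTK t ht) hut] at e
    have he := e.eq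
    simp only [mul_assoc, Screen.mul_mul_self_cancel tt, tt, mul_one] at he
    exact he
  have hnorm : Subgroup.closure K ≤ Subgroup.normalizer (Subgroup.closure T : Set G) := by
    refine le_trans ?_ (Subgroup.normalizer_le_normalizer_closure T)
    rw [Subgroup.closure_le]
    intro u hu
    rw [SetLike.mem_coe, Subgroup.mem_set_normalizer_iff]
    intro t
    refine ⟨fun ht => hstep u hu t ht, fun ht => ?_⟩
    have := hstep u hu _ ht
    rw [FGS3.TT.inv_eq hK hu] at this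
    simpa [mul_assoc, Screen.mul_mul_self_cancel (Screen.tt_mul_self hK hu),
      Screen.tt_mul_self hK hu] using this
  haveI hn : ((Subgroup.closure T).subgroupOf (Subgroup.closure K)).Normal :=
    Subgroup.normal_subgroupOf_of_le_normalizer hnorm
  rcases Subgroup.Normal.eq_bot_or_eq_top (hn.map f hf) with hbot | htop
  · have hm : f ⟨x, Subgroup.subset_closure hx⟩ ∈ ((Subgroup.closure T).subgroupOf (Subgroup.closure K)).map f :=
      ⟨_, Subgroup.subset_closure (Relation.ReflTransGen.refl : x ∈ T), rfl⟩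
    rw [hbot, Subgroup.mem_bot] at hm
    exact hne _ hx hm
  · apply hne ⟨y, Subgroup.subset_closure hy⟩ hy
    have hm : f ⟨y, Subgroup.subset_closure hy⟩ ∈ Subgroup.center X := by
      refine Subgroup.mem_center_iff.2 fun v => ?_
      obtain ⟨q, hq, rfl⟩ := (htop.symm ▸ Subgroup.mem_top v :
        v ∈ ((Subgroup.closure T).subgroupOf (Subgroup.closure K)).map f)
      have hle : Subgroup.closure T ≤ Subgroup.centralizer {y} :=
        (Subgroup.closure_le _).2 fun t ht => Subgroup.mem_centralizer_singleton_iff.2 (hcom t ht)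
      rw [← map_mul, ← map_mul]
      congr 1
      exact Subtype.ext (Subgroup.mem_centralizer_singleton_iff.1 (hle hq))
    rwa [hcen, Subgroup.mem_bot] at hm

/-- In type M(23) the members commuting with a commuting pair are conjugate in its centralizer. -/
theorem m23_transitive (hD : IsThreeTranspositionClass D) (hp : IsPrimitiveUnderConj D)
    (h : IsOfTypeM23 G D) (hg1 : ∀ a ∈ D, Good (Nb D a)) {a b x y : G} (ha : a ∈ D) (hb : b ∈ Nb D a)
    (hx : x ∈ Nb D a ∩ Nb D b) (hy : y ∈ Nb D a ∩ Nb D b) :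
    ∃ g : G, Commute g a ∧ Commute g b ∧ g * x * g⁻¹ = y := by
  obtain ⟨-, d, hd, c, -, -, h22, -⟩ := h
  obtain ⟨-, δ, ⟨e, he, rfl⟩, -, -, -, ⟨F, _, _, hF, ⟨eQ⟩⟩, -⟩ := h22
  have hP : Prim D := ⟨hD, hp, d, hd, e, he.1, Ne.symm he.2.1, he.2.2⟩
  set H := Subgroup.closure (Nb D d)
  set π := QuotientGroup.mk' (Subgroup.center ↥H)
  set T := Nb (π '' {z : ↥H | (z : G) ∈ Nb D d}) (π e)
  change ↥(Subgroup.closure T) ⧸ Subgroup.center ↥(Subgroup.closure T) ≃* _ at eQ
  obtain ⟨hsim, hperf, -⟩ := psu_facts hF eQ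
  haveI := hsim
  have hT : T = π '' {z | (z : G) ∈ Nb D d ∩ Nb D (e : G)} := quot_nb hP hd e he
  have hle : Subgroup.closure (Nb D d ∩ Nb D (e : G)) ≤ H := Subgroup.closure_mono Set.inter_subset_left
  set ι := π.comp (Subgroup.inclusion hle)
  have hr : ι.range = Subgroup.closure T := by
    rw [hT, MonoidHom.range_eq_map, ← Subgroup.closure_closure_coe_preimage, MonoidHom.map_closure]
    congr 1
    ext v
    constructor
    · rintro ⟨u, hu, rfl⟩
      exact ⟨_, hu, rfl⟩
    · rintro ⟨u, hu, rfl⟩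
      exact ⟨⟨u, Subgroup.subset_closure hu⟩, hu, rfl⟩
  let f₀ : ↥(Subgroup.closure (Nb D d ∩ Nb D (e : G))) →* ↥(Subgroup.closure T) :=
    (MulEquiv.subgroupCongr hr).toMonoidHom.comp ι.rangeRestrict
  let f := (QuotientGroup.mk' (Subgroup.center ↥(Subgroup.closure T))).comp f₀
  have hfs : Function.Surjective f := (QuotientGroup.mk'_surjective _).comp
    ((MulEquiv.subgroupCongr hr).surjective.comp ι.rangeRestrict_surjective)
  have hcX : Subgroup.center (↥(Subgroup.closure T) ⧸ Subgroup.center ↥(Subgroup.closure T)) = ⊥ := by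
    rcases Subgroup.Normal.eq_bot_or_eq_top (inferInstance :
      (Subgroup.center (↥(Subgroup.closure T) ⧸ Subgroup.center ↥(Subgroup.closure T))).Normal) with q | q
    · exact q
    exfalso
    have hc' : commutator (↥(Subgroup.closure T) ⧸ Subgroup.center ↥(Subgroup.closure T)) = ⊥ :=
      (commutator_eq_bot_iff_center_eq_top _).2 q
    exact top_ne_bot (hperf.symm.trans hc')
  have hne : ∀ z : ↥(Subgroup.closure (Nb D d ∩ Nb D (e : G))),
      (z : G) ∈ Nb D d ∩ Nb D (e : G) → f z ≠ 1 := by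
    intro z hz hfz
    have hzc : f₀ z ∈ Subgroup.center ↥(Subgroup.closure T) := (QuotientGroup.eq_one_iff _).1 hfz
    refine not_all_commute hP (hg1 d hd) hd he hz fun u hu => ?_
    refine (quot_facts hP hd).1 (Subgroup.inclusion hle z)
      (Subgroup.inclusion hle ⟨u, Subgroup.subset_closure hu⟩) hz.1 hu.1 ?_
    exact (congrArg Subtype.val
      (Subgroup.mem_center_iff.1 hzc (f₀ ⟨u, Subgroup.subset_closure hu⟩))).symm
  have hcentral : ∀ g ∈ Subgroup.closure (Nb D d ∩ Nb D (e : G)), Commute g d ∧ Commute g (e : G) := by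
    have hle2 : Subgroup.closure (Nb D d ∩ Nb D (e : G)) ≤ Subgroup.centralizer {d, (e : G)} := by
      rw [Subgroup.closure_le]
      intro u hu
      refine Subgroup.mem_centralizer_iff.2 fun v hv => ?_
      rcases hv with rfl | rfl
      · exact hu.1.2.2.eq
      · exact hu.2.2.2.eq
    exact fun g hg => ⟨(Subgroup.mem_centralizer_iff.1 (hle2 hg) d (Or.inl rfl)).symm,
      (Subgroup.mem_centralizer_iff.1 (hle2 hg) e (Or.inr rfl)).symm⟩
  -- move the pair `(a, b)` to `(d, e)`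
  obtain ⟨g, hgd⟩ := exists_conj hD ha hd
  obtain ⟨k, hk, hkb⟩ := exists_conj_nb hP hd (hgd ▸ nb_conj hD g hb) he
  set m := k * g with hm
  have hma : m * a * m⁻¹ = d := by
    calc m * a * m⁻¹ = k * (g * a * g⁻¹) * k⁻¹ := by rw [hm]; simp [mul_assoc]
      _ = d := by rw [hgd, hk.eq, mul_inv_cancel_right]
  have hmb : m * b * m⁻¹ = e := by
    rw [← hkb, hm]; simp [mul_assoc]
  have hmv : ∀ u ∈ Nb D a ∩ Nb D b, m * u * m⁻¹ ∈ Nb D d ∩ Nb D (e : G) := fun u hu =>
    ⟨hma ▸ nb_conj hD m hu.1, hmb ▸ nb_conj hD m hu.2⟩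
  obtain ⟨q, hq, hqe⟩ := single_class
    ⟨fun z hz => hD.1.1 z hz.1.1, fun z hz w hw => hD.1.2 z hz.1.1 w hw.1.1⟩
    (nb₂_conj_mem hP d e) hcX f hfs hne (hmv x hx) (hmv y hy)
  refine ⟨m⁻¹ * q * m, ?_, ?_, ?_⟩
  · refine (commute_conj_iff m _ a).1 ?_
    simpa [mul_assoc, ← hma] using (hcentral q hq).1
  · refine (commute_conj_iff m _ b).1 ?_
    simpa [mul_assoc, ← hmb] using (hcentral q hq).2
  · have := congrArg (fun z => m⁻¹ * z * m) hqe
    simpa [mul_assoc] using this

/-- A swap in the centralizer of a product of three. -/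
theorem m23_swap (hD : IsThreeTranspositionClass D) (hp : IsPrimitiveUnderConj D)
    (h : IsOfTypeM23 G D) (hg1 : ∀ a ∈ D, Good (Nb D a)) {a b c : G} (ha : a ∈ D) (hb : b ∈ Nb D a)
    (hc : c ∈ Nb D a) (hbc : b ≠ c) (cbc : Commute b c) :
    ∃ g : G, g * a * g⁻¹ = a ∧ g * b * g⁻¹ = c ∧ g * c * g⁻¹ = b := by
  obtain ⟨hP, -⟩ := m23_pair hD hp h
  obtain ⟨g, hga, hgb⟩ := exists_conj_nb hP ha hb hc
  have e : g * a * g⁻¹ = a := by rw [hga.eq, mul_inv_cancel_right]
  have hx : g * c * g⁻¹ ∈ Nb D a ∩ Nb D c := by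
    have h1 := nb_conj hD g hc
    have h2 := nb_conj hD g (show c ∈ Nb D b from ⟨hc.1, hbc.symm, cbc⟩)
    rw [e] at h1
    rw [hgb] at h2
    exact ⟨h1, h2⟩
  obtain ⟨k, hka, hkc, hk⟩ := m23_transitive hD hp h hg1 ha hc hx ⟨hb, hb.1, hbc, cbc.symm⟩
  refine ⟨k * g, ?_, ?_, ?_⟩
  · calc k * g * a * (k * g)⁻¹ = k * (g * a * g⁻¹) * k⁻¹ := by simp [mul_assoc]
      _ = a := by rw [e, hka.eq, mul_inv_cancel_right]
  · calc k * g * b * (k * g)⁻¹ = k * (g * b * g⁻¹) * k⁻¹ := by simp [mul_assoc]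
      _ = c := by rw [hgb, hkc.eq, mul_inv_cancel_right]
  · calc k * g * c * (k * g)⁻¹ = k * (g * c * g⁻¹) * k⁻¹ := by simp [mul_assoc]
      _ = b := hk

end Cfsg.Agent.OddChar.Fischer
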