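import Cfsg.Agent.OddChar.Fischer.Products
import Cfsg.Agent.LocalEven.FStarP
import Cfsg.Agent.LocalEven.CharP

/-!
Two members with the same commuting set in a set of 3-transpositions generating a group with central
2-core are central; uniqueness of factorisations of products of three commuting members.
-/

set_option autoImplicit false
open Cfsg

namespace Cfsg.Agent.OddChar.Fischer

open Cfsg.Agent.Screen (tt_mul_self tt_braid mul_mul_self_cancel)

variable {G : Type*} [Group G] {D : Set G}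

/-- The 2-core of the subgroup generated by `S` is central in it. -/
def Good (S : Set G) : Prop :=
  Cfsg.pCore 2 ↥(Subgroup.closure S) ≤ Subgroup.center ↥(Subgroup.closure S)

theorem conj_mem_of_noncomm (hS : IsThreeTranspositionSet D) {x y : G} (hx : x ∈ D) (hy : y ∈ D)
    (h : ¬ Commute x y) : x * y * x * (x * y)⁻¹ = y := by
  have b := tt_braid hS hx hy h
  have xx := tt_mul_self hS hx
  have yy := tt_mul_self hS hy
  rw [mul_inv_rev, FGS3.TT.inv_eq hS hx, FGS3.TT.inv_eq hS hy, b]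
  simp only [mul_assoc, mul_mul_self_cancel yy]
  rw [xx, mul_one]

/-- Members with the same commuting set are equal or central, if the 2-core is central. -/
theorem sameComm_central [Finite G] {S : Set G} (hS : IsThreeTranspositionSet S)
    (hconj : ∀ x ∈ S, ∀ y ∈ S, x * y * x⁻¹ ∈ S) (hG : Good S) {a b : G}
    (h : FGS3.TT.SameComm S a b) (hne : a ≠ b) : ∀ x ∈ S, Commute a x := by
  by_contra hc
  push Not at hc
  obtain ⟨c, hcS, hac⟩ := hc
  let R : G → G → Prop := fun x y => x ∈ S ∧ y ∈ S ∧ ¬ Commute x y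
  let T : Set G := {x | Relation.ReflTransGen R a x}
  have hTS : ∀ x ∈ T, x ∈ S := by
    intro x hx
    induction hx with
    | refl => exact h.1
    | tail _ e _ => exact e.2.1
  have haT : a ∈ T := Relation.ReflTransGen.refl
  have hbT : b ∈ T := by
    refine Relation.ReflTransGen.tail (r := R) (Relation.ReflTransGen.single ⟨h.1, hcS, hac⟩) ⟨hcS, h.2.1, fun e => ?_⟩
    exact hac ((h.2.2 c hcS).2 e.symm)
  have hstep : ∀ x ∈ S, ∀ t ∈ T, x * t * x⁻¹ ∈ T := by
    intro x hx t ht
    by_cases hxt : Commute x t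
    · rwa [hxt.eq, mul_inv_cancel_right]
    refine ht.tail ⟨hTS t ht, hconj x hx t (hTS t ht), fun e => hxt ?_⟩
    have xx := tt_mul_self hS hx
    have tt := tt_mul_self hS (hTS t ht)
    rw [FGS3.TT.inv_eq hS hx, tt_braid hS hx (hTS t ht) hxt] at e
    have he := e.eq
    simp only [mul_assoc, mul_mul_self_cancel tt, tt, mul_one] at he
    exact he
  have hSN : ∀ x ∈ S, x ∈ Subgroup.normalizer T := by
    intro x hx
    rw [Subgroup.mem_set_normalizer_iff]
    intro t
    refine ⟨fun ht => hstep x hx t ht, fun ht => ?_⟩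
    have := hstep x hx _ ht
    rw [FGS3.TT.inv_eq hS hx] at this
    simpa [mul_assoc, mul_mul_self_cancel (tt_mul_self hS hx), tt_mul_self hS hx] using this
  set Y := Subgroup.closure S with hY
  set C := Subgroup.closure T with hC
  have hCY : C ≤ Y := Subgroup.closure_mono hTS
  have hYC : Y ≤ Subgroup.normalizer (C : Set G) :=
    ((Subgroup.closure_le _).2 hSN).trans (Subgroup.normalizer_le_normalizer_closure T)
  let DC : Set ↥C := {x | (x : G) ∈ T}
  have hconn : ∀ x ∈ T, ∃ k : ↥C, (k : G) * a * (k : G)⁻¹ = x := by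
    intro x hx
    induction hx with
    | refl => exact ⟨1, by simp⟩
    | @tail u v hu e ih =>
      obtain ⟨k, hk⟩ := ih
      have hvT : v ∈ T := hu.tail e
      refine ⟨(⟨u, Subgroup.subset_closure hu⟩ * ⟨v, Subgroup.subset_closure hvT⟩) * k, ?_⟩
      have := conj_mem_of_noncomm hS e.1 e.2.1 e.2.2
      refine Eq.trans ?_ this
      calc _ = u * v * ((k : G) * a * (k : G)⁻¹) * (u * v)⁻¹ := by simp [mul_assoc]
        _ = _ := by rw [hk]
  have hcls : Cfsg.IsThreeTranspositionClass DC := by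
    refine ⟨⟨fun x hx => ?_, fun x hx y hy => ?_⟩, ⟨⟨a, Subgroup.subset_closure haT⟩, haT, Set.ext fun x => ⟨fun hx => ?_, fun hx => ?_⟩⟩, ?_⟩
    · rw [← Subgroup.orderOf_coe]; exact hS.1 _ (hTS _ hx)
    · exact (hS.2 _ (hTS _ hx) _ (hTS _ hy)).imp (fun e => Subtype.ext e) (fun e => Subtype.ext e)
    · obtain ⟨k, hk⟩ := hconn _ hx
      exact isConj_iff.2 ⟨k, Subtype.ext hk⟩
    · obtain ⟨k, rfl⟩ := isConj_iff.1 (show IsConj _ x from hx)
      show (k : G) * a * (k : G)⁻¹ ∈ T
      have hk : (k : G) ∈ Subgroup.normalizer T :=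
        ((Subgroup.closure_le _).2 fun t ht => hSN t (hTS t ht) : C ≤ Subgroup.normalizer T) k.2
      exact (Subgroup.mem_set_normalizer_iff.1 hk a).1 haT
    · exact Subgroup.closure_closure_coe_preimage
  have h2 : ∃ u ∈ DC, ∃ v ∈ DC, u ≠ v :=
    ⟨⟨a, Subgroup.subset_closure haT⟩, haT, ⟨b, Subgroup.subset_closure hbT⟩, hbT,
      fun e => hne (congrArg Subtype.val e)⟩
  have hd := (S5349.result hcls h2 (d := ⟨a, Subgroup.subset_closure haT⟩) haT).1
  have hm : (⟨b, Subgroup.subset_closure hbT⟩ : ↥C) ∈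
      {v : ↥C | v ∈ DC ∧ ∀ e ∈ DC, Commute v e ↔ Commute (⟨a, Subgroup.subset_closure haT⟩ : ↥C) e} := by
    refine ⟨hbT, fun e he => ⟨fun hv => Subtype.ext ?_, fun hv => Subtype.ext ?_⟩⟩
    · exact ((h.2.2 _ (hTS _ he)).2 (congrArg Subtype.val hv.eq)).eq
    · exact ((h.2.2 _ (hTS _ he)).1 (congrArg Subtype.val hv.eq)).eq
  rw [hd] at hm
  have hab2 : a⁻¹ * b ∈ LocalEven.op 2 C := ⟨_, hm.2, rfl⟩
  have hop : LocalEven.op 2 C ≤ LocalEven.op 2 Y :=
    LocalEven.le_op ((LocalEven.op_le C).trans hCY)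
      (hYC.trans (LocalEven.normalizer_le_normalizer_map _)) (LocalEven.isPGroup_op C)
  obtain ⟨w, hw, hwe⟩ := hop hab2
  have hcen := Subgroup.mem_center_iff.1 (hG hw) ⟨c, Subgroup.subset_closure hcS⟩
  have hcw : Commute (a * b) c := by
    have := congrArg Subtype.val hcen
    simp only [Subgroup.coe_mul] at this
    change c * (w : G) = (w : G) * c at this
    rw [show (w : G) = a⁻¹ * b from hwe, FGS3.TT.inv_eq hS h.1] at this
    exact this.symm
  exact hac (commute_two hS h.1 h.2.1 hcS h.commute hne hcw).1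

section Prim

variable [Finite G]

open FGS3.TT

theorem nb_conj_mem (h : Prim D) (d : G) : ∀ x ∈ Nb D d, ∀ y ∈ Nb D d, x * y * x⁻¹ ∈ Nb D d := by
  intro x hx y hy
  have e : x * d * x⁻¹ = d := by rw [← hx.2.2.eq, mul_inv_cancel_right]
  have := nb_conj h.cls x hy
  rwa [e] at this

theorem nb_tts (h : Prim D) (d : G) : IsThreeTranspositionSet (Nb D d) :=
  ⟨fun x hx => h.cls.1.1 x hx.1, fun x hx y hy => h.cls.1.2 x hx.1 y hy.1⟩

theorem nb₂_conj_mem (h : Prim D) (a b : G) :
    ∀ x ∈ Nb D a ∩ Nb D b, ∀ y ∈ Nb D a ∩ Nb D b, x * y * x⁻¹ ∈ Nb D a ∩ Nb D b :=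
  fun x hx y hy => ⟨nb_conj_mem h a x hx.1 y hy.1, nb_conj_mem h b x hx.2 y hy.2⟩

/-- The members commuting with `d` are conjugate under its centralizer. -/
theorem exists_conj_nb (h : Prim D) {d a b : G} (hd : d ∈ D) (ha : a ∈ Nb D d) (hb : b ∈ Nb D d) :
    ∃ g : G, Commute g d ∧ g * a * g⁻¹ = b := by
  rw [← h.comp_eq_nb hd ha] at hb
  induction hb with
  | refl => exact ⟨1, Commute.one_left d, by simp⟩
  | @tail u v _ e ih =>
    obtain ⟨g, hg, hga⟩ := ih
    refine ⟨u * v * g, ((e.1.2.2.symm).mul_left e.2.1.2.2.symm).mul_left hg, ?_⟩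
    refine Eq.trans ?_ (conj_mem_of_noncomm h.cls.1 e.1.1 e.2.1.1 e.2.2)
    calc _ = u * v * (g * a * g⁻¹) * (u * v)⁻¹ := by simp [mul_assoc]
      _ = _ := by rw [hga]

/-- A conjugate of a good set is good. -/
theorem Good.map_conj {S : Set G} (hS : Good S) (g : G) : Good ((fun x => g * x * g⁻¹) '' S) := by
  set f := (MulAut.conj g).toMonoidHom with hf
  have e : (Subgroup.closure S).map f = Subgroup.closure ((fun x => g * x * g⁻¹) '' S) := by
    rw [MonoidHom.map_closure]; rfl
  rw [Good, ← e]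
  set φ := Subgroup.equivMapOfInjective (Subgroup.closure S) f (MulAut.conj g).injective with hφ
  rw [← Core.pCore_map_equiv φ]
  rintro _ ⟨u, hu, rfl⟩
  rw [Subgroup.mem_center_iff]
  intro z
  obtain ⟨y, rfl⟩ := φ.surjective z
  exact ((Subgroup.mem_center_iff.1 (hS hu) y).symm ▸ (map_mul φ y u).symm.trans rfl).trans (map_mul φ u y)

/-- Goodness at one member gives it at all. -/
theorem good_nb (h : Prim D) {d e : G} (hd : d ∈ D) (he : e ∈ D) (hg : Good (Nb D d)) :
    Good (Nb D e) := by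
  obtain ⟨g, rfl⟩ := exists_conj h.cls hd he
  rw [← nb_image h.cls g d]
  exact hg.map_conj g

/-- Goodness at one commuting pair gives it at all. -/
theorem good_nb₂ (h : Prim D) {d e a b : G} (hd : d ∈ D) (he : e ∈ Nb D d) (ha : a ∈ D)
    (hb : b ∈ Nb D a) (hg : Good (Nb D d ∩ Nb D e)) : Good (Nb D a ∩ Nb D b) := by
  obtain ⟨g, rfl⟩ := exists_conj h.cls hd ha
  obtain ⟨k, hk, hkb⟩ := exists_conj_nb h ha (nb_conj h.cls g he) hb
  have hgk : ∀ S : Set G, (fun x => k * g * x * (k * g)⁻¹) '' S =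
      (fun x => k * x * k⁻¹) '' ((fun x => g * x * g⁻¹) '' S) := fun S => by
    rw [← Set.image_comp]; exact Set.image_congr' fun x => by simp [mul_assoc]
  have := hg.map_conj (k * g)
  rw [Set.image_inter (fun u v e => by simpa using e)] at this
  rw [hgk, hgk, nb_image h.cls g d, nb_image h.cls k, nb_image h.cls g e, nb_image h.cls k, hkb] at this
  rwa [hk.eq, mul_inv_cancel_right] at this

/-- In the situation of six commuting members with product one, the third commutes with the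
members commuting with the first two. -/
theorem third_of_two (h : Prim D) {a b c a' b' c' : G}
    (hg : Good (Nb D a ∩ Nb D b))
    (ha : a ∈ D) (hb : b ∈ D) (hc : c ∈ D) (ha' : a' ∈ D) (hb' : b' ∈ D) (hc' : c' ∈ D)
    (hab : Commute a b) (hac : Commute a c) (hbc : Commute b c)
    (hab' : Commute a' b') (hac' : Commute a' c') (hbc' : Commute b' c')
    (hca : Commute c a') (hcb : Commute c b') (hcc : Commute c c')
    (haa : Commute a a') (hba : Commute b a')
    (n1 : a ≠ b) (n2 : a ≠ c) (n3 : b ≠ c) (n4 : a ≠ a') (n5 : b ≠ a') (n6 : c ≠ a')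
    (n7 : c ≠ b') (n8 : c ≠ c') (n9 : b' ≠ c') (n10 : a' ≠ b') (n11 : a' ≠ c')
    (e : a * b * c = a' * b' * c') {x : G} (hx : x ∈ D) (hxa : Commute a x) (hxb : Commute b x) :
    Commute c x := by
  by_cases hxA : x = a
  · rw [hxA]; exact hac.symm
  by_cases hxB : x = b
  · rw [hxB]; exact hbc.symm
  have hxK : x ∈ Nb D a ∩ Nb D b := ⟨⟨hx, hxA, hxa⟩, ⟨hx, hxB, hxb⟩⟩
  have e2 : a * b * a' = c * b' * c' := by
    calc a * b * a' = a * b * (c * c) * a' := by rw [tt_mul_self h.cls.1 hc, mul_one]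
      _ = (a * b * c) * (c * a') := by simp only [mul_assoc]
      _ = (a' * b' * c') * (a' * c) := by rw [e, hca.eq]
      _ = (a' * b' * c') * a' * c := by simp only [mul_assoc]
      _ = a' * a' * (b' * c') * c := by
          have hq : Commute a' (b' * c') := hab'.mul_right hac'
          rw [mul_assoc a' b' c', mul_assoc a' (b' * c') a', ← hq.eq, mul_assoc a' a' (b' * c')]
      _ = (b' * c') * c := by rw [tt_mul_self h.cls.1 ha', one_mul]
      _ = c * (b' * c') := ((hcb.mul_right hcc).eq).symm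
      _ = c * b' * c' := (mul_assoc _ _ _).symm
  have hsame : SameComm (Nb D a ∩ Nb D b) c a' := by
    refine ⟨⟨⟨hc, n2.symm, hac⟩, ⟨hc, n3.symm, hbc⟩⟩, ⟨⟨ha', n4.symm, haa⟩, ⟨ha', n5.symm, hba⟩⟩, fun y hy => ?_⟩
    constructor
    · intro hy'
      have : Commute (a' * b' * c') y := by
        rw [← e]; exact (hy.1.2.2.mul_left hy.2.2.2).mul_left hy'
      exact (commute_three h.cls.1 ha' hb' hc' hy.1.1 hab' hac' hbc'
        n10 n11 n9 this).1
    · intro hy'
      have : Commute (c * b' * c') y := by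
        rw [← e2]; exact (hy.1.2.2.mul_left hy.2.2.2).mul_left hy'
      exact (commute_three h.cls.1 hc hb' hc' hy.1.1 hcb hcc hbc' n7 n8 n9 this).1
  exact sameComm_central ⟨fun z hz => h.cls.1.1 z hz.1.1, fun z hz w hw => h.cls.1.2 z hz.1.1 w hw.1.1⟩
    (nb₂_conj_mem h a b) hg hsame n6 x hxK

end Prim

end Cfsg.Agent.OddChar.Fischer
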