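import Cfsg.Agent.OddChar.Fischer.Pullback
import Cfsg.Agent.Forms.UnitarySimple
import Cfsg.Agent.S0283

/-!
Groups of type M(23) and M(24): the members commuting with two commuting members generate a group
with central 2-core.
-/

set_option autoImplicit false
open Cfsg

namespace Cfsg.Agent.OddChar.Fischer

open FGS3.TT

variable {G : Type*} [Group G]

theorem psu_facts {X : Type*} [Group X] [Finite X] {F : Type} [Field F] [Fintype F]
    (hF : Fintype.card F = 4) (e : X ≃* Cfsg.PSU 6 F 2) :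
    IsSimpleGroup X ∧ commutator X = ⊤ ∧ Cfsg.pCore 2 X = ⊥ := by
  have hF' : Fintype.card F = 2 ^ 2 := by rw [hF]; norm_num
  haveI := S0283.result (F := F) hF' 6 (by norm_num) (by norm_num)
  have hsim : IsSimpleGroup X := MulEquiv.isSimpleGroup e
  have hperf0 : commutator (Cfsg.PSU 6 F 2) = ⊤ := by
    have h := Subgroup.map_commutator (⊤ : Subgroup (Cfsg.SU 6 F 2)) ⊤
      (QuotientGroup.mk' (Subgroup.center (Cfsg.SU 6 F 2)))
    rw [Subgroup.map_top_of_surjective _ (QuotientGroup.mk'_surjective _)] at h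
    rw [commutator_def, ← h, ← commutator_def, Forms.su_perfect hF' (by norm_num) (by norm_num),
      Subgroup.map_top_of_surjective _ (QuotientGroup.mk'_surjective _)]
  have hperf : commutator X = ⊤ := by
    have h := Subgroup.map_commutator (⊤ : Subgroup (Cfsg.PSU 6 F 2)) ⊤ e.symm.toMonoidHom
    rw [Subgroup.map_top_of_surjective _ e.symm.surjective] at h
    rw [commutator_def, ← h, ← commutator_def, hperf0,
      Subgroup.map_top_of_surjective _ e.symm.surjective]
  refine ⟨hsim, hperf, ?_⟩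
  haveI := hsim
  rcases Subgroup.Normal.eq_bot_or_eq_top (inferInstance : (Cfsg.pCore 2 X).Normal) with h | h
  · exact h
  exfalso
  haveI : Fact (Nat.Prime 2) := ⟨Nat.prime_two⟩
  have hp : IsPGroup 2 X := by
    have := Core.isPGroup_pCore 2 X
    rw [h] at this
    exact this.of_equiv Subgroup.topEquiv
  haveI := hp.isNilpotent
  haveI : Nontrivial X := hsim.toNontrivial
  exact (Group.IsSolvable.commutator_lt_top_of_nontrivial X).ne hperf

/-- In type M(22), the neighbours of the first member generate a group with central 2-core. -/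
theorem m22_good [Finite G] {D : Set G} (h : IsOfTypeM22 G D) : ∃ δ ∈ D, Good (Nb D δ) := by
  obtain ⟨-, δ, hδ, c, -, -, ⟨F, _, _, hF, ⟨e⟩⟩, -⟩ := h
  exact ⟨δ, hδ, pCore_le_center_of_quotient (psu_facts hF e).2.2⟩

/-- Members centralising the kernel spread along non-commuting pairs. -/
theorem mem_centralizer_step {Y : Set G} (hY : Tr Y) {C : Subgroup G} (hC : C.Normal) {a b : G}
    (ha : a ∈ Y) (hb : b ∈ Y) (haC : a ∈ C) (hne : ¬ Commute a b) : b ∈ C := by
  have := conj_mem_of_noncomm hY.tts ⟨ha, Tr.ne_one hne⟩ ⟨hb, Tr.ne_one fun e => hne e.symm⟩ hne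
  rw [← this]
  simpa [mul_assoc] using hC.conj_mem a haC (a * b)

/-- A generating set with the data of type M(22) generates a group without normal 2-subgroups. -/
theorem m22_core [Finite G] {Y : Set G} (hY : Tr Y) (hgen : Subgroup.closure Y = ⊤)
    (h : IsOfTypeM22 G Y) : Cfsg.pCore 2 G = ⊥ := by
  obtain ⟨hcen, ε, hε, γ, hγ, hεγ, ⟨F, _, _, hF, ⟨eQ⟩⟩, c, hc, Qf, hQf, -, ⟨eM⟩⟩ := h
  change ↥(Subgroup.closure (Nb Y ε)) ⧸ Subgroup.center ↥(Subgroup.closure (Nb Y ε)) ≃* _ at eQ
  change ↥(Subgroup.closure (Nb Y ε ∩ Nb Y γ)) ⧸ Subgroup.center ↥(Subgroup.closure (Nb Y ε ∩ Nb Y γ)) ≃* _ at eM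
  obtain ⟨hsim, hperfQ, -⟩ := psu_facts hF eQ
  obtain ⟨hR2, hRp⟩ := refl_facts rfl hQf hc
  set S := Nb Y ε ∩ Nb Y γ with hS
  set M := Subgroup.closure S with hM
  set QQ := Subgroup.closure (Nb Y ε) with hQQ
  have hMgood : Good S := pCore_le_center_of_quotient ((Core.pCore_eq_bot_congr eM).2 hR2)
  have hMperf : ¬ (commutator (↥M ⧸ Subgroup.center ↥M) = ⊤) := by
    intro hp
    apply hRp
    have h' := Subgroup.map_commutator (⊤ : Subgroup (↥M ⧸ Subgroup.center ↥M)) ⊤ eM.toMonoidHom
    rw [Subgroup.map_top_of_surjective _ eM.surjective] at h'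
    rw [commutator_def, ← h', ← commutator_def, hp, Subgroup.map_top_of_surjective _ eM.surjective]
  -- a non-commuting pair inside
  obtain ⟨x₀, hx₀, z₀, hz₀, hx₀z₀⟩ : ∃ x ∈ S, ∃ z ∈ S, ¬ Commute x z := by
    by_contra hall
    push Not at hall
    apply hMperf
    have hle : M ≤ Subgroup.centralizer S :=
      (Subgroup.closure_le _).2 fun x hx => Subgroup.mem_centralizer_iff.2 fun z hz =>
        (hall z hz x hx).eq
    have hc' : ∀ g : ↥M, g ∈ Subgroup.center ↥M := by
      intro g
      have hle2 : M ≤ Subgroup.centralizer {(g : G)} := (Subgroup.closure_le _).2 fun x hx =>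
        Subgroup.mem_centralizer_singleton_iff.2 (Subgroup.mem_centralizer_iff.1 (hle g.2) x hx)
      exact Subgroup.mem_center_iff.2 fun u =>
        Subtype.ext (Subgroup.mem_centralizer_singleton_iff.1 (hle2 u.2))
    haveI : Subsingleton (↥M ⧸ Subgroup.center ↥M) :=
      QuotientGroup.subsingleton_iff.2 (eq_top_iff.2 fun g _ => hc' g)
    exact Subsingleton.elim _ _
  set N := Cfsg.pCore 2 G with hN
  have hnorm : ∀ g : G, g ∈ Subgroup.normalizer Y := fun g =>
    hY.closure_le_normalizer (hgen ▸ Subgroup.mem_top g)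
  have hSY : Tr S := (hY.nb ε).inter (hY.nb γ)
  -- conjugation by the kernel keeps commuting sets
  have hsame : ∀ n ∈ N, ∀ x ∈ Y, ∀ y ∈ Y, Commute x y → Commute (n * x * n⁻¹) y := by
    intro n hn x hx y hy hxy
    have hv : n * x * n⁻¹ ∈ Y := (Subgroup.mem_set_normalizer_iff.1 (hnorm n) x).1 hx
    rcases hY.pair _ hv y hy with e | e
    · exact commute_of_sq (hY.sq _ hv) (hY.sq _ hy) e
    set π := QuotientGroup.mk' N
    have hπ : π (n * x * n⁻¹) = π x := by
      have : π n = 1 := (QuotientGroup.eq_one_iff n).2 hn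
      rw [map_mul, map_mul, map_inv, this, one_mul, inv_one, mul_one]
    have h2' : (π x * π y) ^ 2 = 1 := by
      rw [← map_mul, ← map_pow, pow_two, mul_assoc x y, ← mul_assoc y x y, ← hxy.eq,
        mul_assoc x y y, hY.sq _ hy, mul_one, hY.sq _ hx, map_one]
    have h3' : (π x * π y) ^ 3 = 1 := by
      rw [← hπ, ← map_mul, ← map_pow, e, map_one]
    have h1 : n * x * n⁻¹ * y ∈ N := by
      refine (QuotientGroup.eq_one_iff _).1 ?_
      show π (n * x * n⁻¹ * y) = 1
      rw [map_mul, hπ]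
      rwa [pow_succ, h2', one_mul] at h3'
    obtain ⟨k, hk⟩ := Core.isPGroup_pCore 2 G ⟨_, h1⟩
    have hk' : (n * x * n⁻¹ * y) ^ 2 ^ k = 1 := congrArg Subtype.val hk
    have h5 : n * x * n⁻¹ * y = 1 := by
      have hd1 : orderOf (n * x * n⁻¹ * y) ∣ 2 ^ k := orderOf_dvd_of_pow_eq_one hk'
      have hd2 : orderOf (n * x * n⁻¹ * y) ∣ 3 := orderOf_dvd_of_pow_eq_one e
      have := Nat.dvd_gcd hd1 hd2
      rw [(Nat.Coprime.pow_left k (by norm_num : Nat.Coprime 2 3)).gcd_eq_one, Nat.dvd_one,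
        orderOf_eq_one_iff] at this
      exact this
    rw [eq_inv_of_mul_eq_one_left h5]
    exact (Commute.refl y).inv_left
  set C := Subgroup.centralizer (N : Set G) with hC
  haveI hCn : C.Normal := inferInstance
  have hiff : ∀ n ∈ N, ∀ x ∈ Y, ∀ y ∈ Y, Commute (n * x * n⁻¹) y ↔ Commute x y := by
    intro n hn x hx y hy
    refine ⟨fun hc' => ?_, hsame n hn x hx y hy⟩
    have hv : n * x * n⁻¹ ∈ Y := (Subgroup.mem_set_normalizer_iff.1 (hnorm n) x).1 hx
    simpa [mul_assoc] using hsame n⁻¹ (inv_mem hn) _ hv y hy hc'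
  have hnonc : ∀ x ∈ S, ∀ z ∈ S, ¬ Commute x z → x ∈ C := by
    intro x hx z hz hxz
    refine Subgroup.mem_centralizer_iff.2 fun n hn => ?_
    have hv : n * x * n⁻¹ ∈ Y := (Subgroup.mem_set_normalizer_iff.1 (hnorm n) x).1 hx.1.1
    have hvε : Commute (n * x * n⁻¹) ε := hsame n hn x hx.1.1 ε hε hx.1.2.2.symm
    have hvγ : Commute (n * x * n⁻¹) γ := hsame n hn x hx.1.1 γ hγ hx.2.2.2.symm
    have hvS : n * x * n⁻¹ ∈ S :=
      ⟨⟨hv, fun e => hεγ (e ▸ hvγ), hvε.symm⟩, ⟨hv, fun e => hεγ ((e ▸ hvε).symm), hvγ.symm⟩⟩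
    have hx1 : x ≠ 1 := Tr.ne_one hxz
    have hv1 : n * x * n⁻¹ ≠ 1 := fun e => hx1 (by simpa using e)
    refine mul_inv_eq_iff_eq_mul.1 (not_not.1 fun hne => hxz ?_)
    exact sameComm_central hSY.tts hSY.conj_sdiff (good_congr (closure_sdiff_one S).symm hMgood)
      ⟨⟨hx, hx1⟩, ⟨hvS, hv1⟩, fun y hy => (hiff n hn x hx.1.1 y hy.1.1.1).symm⟩
      (fun e => hne e.symm) z ⟨hz, Tr.ne_one fun e => hxz e.symm⟩
  have hstep : ∀ a b, a ∈ Y → b ∈ Y → a ∈ C → ¬ Commute a b → b ∈ C := fun a b ha hb hac hne =>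
    mem_centralizer_step hY hCn ha hb hac hne
  have hx₀C : x₀ ∈ C := hnonc x₀ hx₀ z₀ hz₀ hx₀z₀
  by_cases hεC : ε ∈ C
  · have hγC := hstep ε γ hε hγ hεC hεγ
    have hall : Y ⊆ C := by
      intro z hz
      by_contra hzC
      have hzε : Commute ε z := by
        by_contra hne; exact hzC (hstep ε z hε hz hεC hne)
      have hzγ : Commute γ z := by
        by_contra hne; exact hzC (hstep γ z hγ hz hγC hne)
      have hzS : z ∈ S := ⟨⟨hz, fun e => hzC (e ▸ hεC), hzε⟩, ⟨hz, fun e => hzC (e ▸ hγC), hzγ⟩⟩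
      have hcom : ∀ y ∈ Y, Commute z y := by
        intro y hy
        by_contra hne
        by_cases hyC : y ∈ C
        · exact hzC (hstep y z hy hz hyC fun e => hne e.symm)
        · have hyε : Commute ε y := by
            by_contra hne'; exact hyC (hstep ε y hε hy hεC hne')
          have hyγ : Commute γ y := by
            by_contra hne'; exact hyC (hstep γ y hγ hy hγC hne')
          exact hzC (hnonc z hzS y ⟨⟨hy, fun e => hyC (e ▸ hεC), hyε⟩,
            ⟨hy, fun e => hyC (e ▸ hγC), hyγ⟩⟩ hne)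
      have hzc : z ∈ Subgroup.center G := by
        have hle : (⊤ : Subgroup G) ≤ Subgroup.centralizer {z} := by
          rw [← hgen, Subgroup.closure_le]
          exact fun y hy => Subgroup.mem_centralizer_singleton_iff.2 (hcom y hy).symm
        exact Subgroup.mem_center_iff.2 fun g =>
          Subgroup.mem_centralizer_singleton_iff.1 (hle (Subgroup.mem_top g))
      rw [hcen, Subgroup.mem_bot] at hzc
      exact hzC (hzc ▸ C.one_mem)
    have htop : C = ⊤ := top_le_iff.1 (hgen ▸ (Subgroup.closure_le C).2 hall)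
    rw [eq_bot_iff, ← hcen]
    intro n hn
    exact Subgroup.mem_center_iff.2 fun g =>
      (Subgroup.mem_centralizer_iff.1 (show g ∈ C from htop ▸ Subgroup.mem_top g) n hn).symm
  · exfalso
    have hγC : γ ∉ C := fun hg => hεC (hstep γ ε hγ hε hg fun e => hεγ e.symm)
    have hin : ∀ y ∈ Y, y ∈ C → y ∈ S := by
      intro y hy hyC
      have h1 : Commute ε y := by
        by_contra hne; exact hεC (hstep y ε hy hε hyC fun e => hne e.symm)
      have h2 : Commute γ y := by
        by_contra hne; exact hγC (hstep y γ hy hγ hyC fun e => hne e.symm)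
      exact ⟨⟨hy, fun e => hεC (e ▸ hyC), h1⟩, ⟨hy, fun e => hγC (e ▸ hyC), h2⟩⟩
    set P : Set G := Nb Y ε ∩ C with hP
    have hPM : Subgroup.closure P ≤ M :=
      Subgroup.closure_mono fun y hy => hin y hy.1.1 hy.2
    have hnP : QQ ≤ Subgroup.normalizer (Subgroup.closure P : Set G) := by
      refine le_trans ?_ (Subgroup.normalizer_le_normalizer_closure P)
      intro q hq
      rw [Subgroup.mem_set_normalizer_iff]
      intro t
      have h1 := Subgroup.mem_set_normalizer_iff.1 ((hY.nb ε).closure_le_normalizer hq) t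
      refine ⟨fun ht => ⟨h1.1 ht.1, hCn.conj_mem t ht.2 q⟩, fun ht => ⟨h1.2 ht.1, ?_⟩⟩
      simpa [mul_assoc] using hCn.conj_mem _ ht.2 q⁻¹
    haveI : ((Subgroup.closure P).subgroupOf QQ).Normal :=
      Subgroup.normal_subgroupOf_of_le_normalizer hnP
    set π := QuotientGroup.mk' (Subgroup.center ↥QQ) with hπ
    haveI := hsim
    rcases Subgroup.Normal.eq_bot_or_eq_top
      ((‹((Subgroup.closure P).subgroupOf QQ).Normal›).map π (QuotientGroup.mk'_surjective _))
      with hbot | htop
    · rw [Subgroup.map_eq_bot_iff, QuotientGroup.ker_mk'] at hbot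
      have hxc : (⟨x₀, Subgroup.subset_closure hx₀.1⟩ : ↥QQ) ∈ Subgroup.center ↥QQ :=
        hbot (Subgroup.subset_closure ⟨hx₀.1, hx₀C⟩)
      exact hx₀z₀ ((congrArg Subtype.val (Subgroup.mem_center_iff.1 hxc
        ⟨z₀, Subgroup.subset_closure hz₀.1⟩)).symm)
    · apply hMperf
      have hMQ : M ≤ QQ := Subgroup.closure_mono Set.inter_subset_left
      set f := π.comp (Subgroup.inclusion hMQ) with hf
      have hfs : Function.Surjective f := by
        intro v
        obtain ⟨q, hq, rfl⟩ := (htop.symm ▸ Subgroup.mem_top v :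
          v ∈ ((Subgroup.closure P).subgroupOf QQ).map π)
        exact ⟨⟨(q : G), hPM hq⟩, rfl⟩
      have hker : f.ker ≤ Subgroup.center ↥M := by
        intro m hm
        have hm' : Subgroup.inclusion hMQ m ∈ Subgroup.center ↥QQ :=
          (QuotientGroup.eq_one_iff _).1 hm
        exact Subgroup.mem_center_iff.2 fun u => Subgroup.inclusion_injective hMQ (by
          rw [map_mul, map_mul]; exact Subgroup.mem_center_iff.1 hm' (Subgroup.inclusion hMQ u))
      have hmap := Subgroup.map_commutator (⊤ : Subgroup ↥M) ⊤ f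
      rw [Subgroup.map_top_of_surjective _ hfs, ← commutator_def, ← commutator_def, hperfQ] at hmap
      have hsup : commutator ↥M ⊔ Subgroup.center ↥M = ⊤ := by
        refine eq_top_iff.2 fun m _ => ?_
        obtain ⟨k, hk, hkm⟩ := (hmap.symm ▸ Subgroup.mem_top (f m) :
          f m ∈ (commutator ↥M).map f)
        have : k⁻¹ * m ∈ f.ker := by rw [MonoidHom.mem_ker, map_mul, map_inv, hkm, inv_mul_cancel]
        simpa using Subgroup.mul_mem_sup hk (hker this)
      set ρ := QuotientGroup.mk' (Subgroup.center ↥M)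
      have hmap2 := Subgroup.map_commutator (⊤ : Subgroup ↥M) ⊤ ρ
      rw [Subgroup.map_top_of_surjective _ (QuotientGroup.mk'_surjective _), ← commutator_def,
        ← commutator_def] at hmap2
      rw [← hmap2]
      have h2 := congrArg (Subgroup.map ρ) hsup
      rwa [Subgroup.map_sup, QuotientGroup.map_mk'_self, sup_bot_eq,
        Subgroup.map_top_of_surjective _ (QuotientGroup.mk'_surjective _)] at h2

end Cfsg.Agent.OddChar.Fischer
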